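import Mathlib
import Cfsg.Agent.S0752

/-!
Block numbers of a unipotent isometry on an invariant nondegenerate subspace.
-/

set_option autoImplicit false

namespace CfsgLib.OrthUnip

open Module

variable {F V : Type*} [Field F] [AddCommGroup V] [Module F V] [FiniteDimensional F V]

/-- The rank of `N ^ k` on `W`. -/
noncomputable def rkOn (N : Module.End F V) (W : Submodule F V) (k : ℕ) : ℕ := finrank F (W.map (N ^ k))

/-- The number of blocks of size `e`. -/
noncomputable def blocks (r : ℕ → ℕ) (e : ℕ) : ℕ := r (e - 1) + r (e + 1) - 2 * r e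

theorem map_succ (N : Module.End F V) (W : Submodule F V) (k : ℕ) :
    W.map (N ^ (k + 1)) = (W.map (N ^ k)).map N := by
  rw [← Submodule.map_comp, pow_succ']
  rfl

theorem rkOn_zero (N : Module.End F V) (W : Submodule F V) : rkOn N W 0 = finrank F W := by
  rw [rkOn, pow_zero, Module.End.one_eq_id, Submodule.map_id]

theorem rkOn_convex {N : Module.End F V} {W : Submodule F V} (hW : W.map N ≤ W) (k : ℕ) :
    2 * rkOn N W (k + 1) ≤ rkOn N W k + rkOn N W (k + 2) := by
  have key : ∀ j, rkOn N W (j + 1) + finrank F (LinearMap.ker N ⊓ W.map (N ^ j) : Submodule F V) = rkOn N W j := by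
    intro j
    have h1 := LinearMap.finrank_range_add_finrank_ker (N.domRestrict (W.map (N ^ j)))
    rw [LinearMap.range_domRestrict, ← map_succ] at h1
    have h2 : finrank F (LinearMap.ker (N.domRestrict (W.map (N ^ j)))) =
        finrank F (LinearMap.ker N ⊓ W.map (N ^ j) : Submodule F V) := by
      have e : (LinearMap.ker (N.domRestrict (W.map (N ^ j)))).map (W.map (N ^ j)).subtype =
          LinearMap.ker N ⊓ W.map (N ^ j) := by
        ext v
        constructor
        · rintro ⟨⟨u, hu⟩, h, rfl⟩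
          exact ⟨h, hu⟩
        · rintro ⟨h, hu⟩
          exact ⟨⟨v, hu⟩, h, rfl⟩
      rw [(Submodule.equivMapOfInjective _ (Submodule.subtype_injective _) _).finrank_eq, e]
    unfold rkOn
    omega
  have hle : W.map (N ^ (k + 1)) ≤ W.map (N ^ k) := by
    rw [pow_succ, show N ^ k * N = (N ^ k).comp N from rfl, Submodule.map_comp]
    exact Submodule.map_mono hW
  have hmono := Submodule.finrank_mono (inf_le_inf_left (LinearMap.ker N) hle)
  have h1 := key k
  have h2 : rkOn N W (k + 2) + finrank F (LinearMap.ker N ⊓ W.map (N ^ (k + 1)) : Submodule F V) =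
      rkOn N W (k + 1) := key (k + 1)
  omega

theorem sum_blocks (r : ℕ → ℕ) (hc : ∀ k, 2 * r (k + 1) ≤ r k + r (k + 2)) {P : ℕ} (hP : ∀ k, P ≤ k → r k = 0) :
    ∑ e ∈ Finset.Icc 1 P, e * blocks r e = r 0 := by
  have h : ∀ K, ∑ e ∈ Finset.Icc 1 K, e * blocks r e + (K + 1) * r K = r 0 + K * r (K + 1) := by
    intro K
    induction K with
    | zero => simp
    | succ K ih =>
      rw [Finset.sum_Icc_succ_top (by omega)]
      obtain ⟨t, ht⟩ : ∃ t, r K + r (K + 2) = 2 * r (K + 1) + t := Nat.exists_eq_add_of_le (hc K)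
      have hb : blocks r (K + 1) = t := by
        show r K + r (K + 2) - 2 * r (K + 1) = t
        omega
      rw [hb]
      show _ = r 0 + (K + 1) * r (K + 2)
      have e1 : (K + 1) * r K + (K + 1) * r (K + 2) = (K + 1) * (2 * r (K + 1) + t) := by rw [← mul_add, ht]
      nlinarith [ih, e1]
  have h1 := h P
  rw [hP P le_rfl, hP (P + 1) (by omega), mul_zero, mul_zero, add_zero, add_zero] at h1
  exact h1

/-- The ranks of a sum of nilpotent blocks. -/
def rankSum (μ : Multiset ℕ) (k : ℕ) : ℕ := (μ.map fun a => a - k).sum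

theorem blocks_rankSum (μ : Multiset ℕ) {e : ℕ} (he : 1 ≤ e) :
    rankSum μ (e - 1) + rankSum μ (e + 1) = 2 * rankSum μ e + μ.count e := by
  induction μ using Multiset.induction with
  | empty => simp [rankSum]
  | cons a μ ih =>
    simp only [rankSum, Multiset.map_cons, Multiset.sum_cons, Multiset.count_cons] at ih ⊢
    split_ifs with h <;> omega

variable {B : LinearMap.BilinForm F V}

/-- A skew map has even rank in odd powers. -/
theorem even_rkOn (h2 : (2 : F) ≠ 0) (hB : ∀ u v, B u v = B v u) {W : Submodule F V}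
    (hW : ∀ u ∈ W, (∀ v ∈ W, B u v = 0) → u = 0) {z : Module.End F V} (hz : ∀ u v, B (z u) v = - B u (z v))
    (hzW : ∀ u ∈ W, z u ∈ W) {k : ℕ} (hk : Odd k) : Even (rkOn z W k) := by
  have hpow : ∀ (n : ℕ) u v, B ((z ^ n) u) v = (-1) ^ n * B u ((z ^ n) v) := by
    intro n
    induction n with
    | zero => intro u v; simp
    | succ n ih =>
      intro u v
      rw [pow_succ', Module.End.mul_apply, hz, ih, ← Module.End.mul_apply, ← pow_succ, ← pow_succ', pow_succ' (-1 : F)]
      ring
  have hzWn : ∀ (n : ℕ), ∀ u ∈ W, (z ^ n) u ∈ W := by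
    intro n
    induction n with
    | zero => intro u hu; simpa using hu
    | succ n ih => intro u hu; rw [pow_succ', Module.End.mul_apply]; exact hzW _ (ih u hu)
  let f : W →ₗ[F] V := (z ^ k).domRestrict W
  obtain ⟨C, hC⟩ := Submodule.exists_isCompl (LinearMap.ker f)
  have hCdim : finrank F C = rkOn z W k := by
    have h1 := LinearMap.finrank_range_add_finrank_ker f
    have h3 := Submodule.finrank_add_eq_of_isCompl hC
    rw [LinearMap.range_domRestrict] at h1
    unfold rkOn
    omega
  let β : LinearMap.BilinForm F C :=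
    B.compl₁₂ ((z ^ k).comp (W.subtype.comp C.subtype)) (W.subtype.comp C.subtype)
  have hβa : ∀ u v : C, β u v = B ((z ^ k) ((u : W) : V)) ((v : W) : V) := fun u v => rfl
  have hA : β.IsAlt := fun u => by
    have h1 := hpow k ((u : W) : V) ((u : W) : V)
    rw [hk.neg_one_pow, hB (((u : W) : V))] at h1
    have h3 : (2 : F) * β u u = 0 := by rw [hβa]; linear_combination h1
    exact (mul_eq_zero.1 h3).resolve_left h2
  obtain ⟨m, k₀, bas, -, -, -, hrad⟩ := Cfsg.Agent.S0752.result β hA
  rcases Nat.eq_zero_or_pos k₀ with rfl | hpos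
  · refine ⟨m, ?_⟩
    rw [← hCdim, Module.finrank_eq_card_basis bas]
    simp
  · exfalso
    obtain ⟨u, hud⟩ : ∃ u, u = bas (Sum.inr ⟨0, hpos⟩) := ⟨_, rfl⟩
    have h0 : ∀ v, β u v = 0 := fun v => hud ▸ hrad _ v
    have hker : (u : W) ∈ LinearMap.ker f := by
      rw [LinearMap.mem_ker]
      refine hW _ (hzWn k _ (u : W).2) fun v hv => ?_
      obtain ⟨a, b, hab, -⟩ := Submodule.existsUnique_add_of_isCompl hC ⟨v, hv⟩
      have hva : v = ((a : W) : V) + ((b : W) : V) := by rw [← Submodule.coe_add, hab]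
      have ha : (z ^ k) ((a : W) : V) = 0 := a.2
      rw [hva, map_add, show B (f (u : W)) ((a : W) : V) = (-1) ^ k * B ((u : W) : V) ((z ^ k) ((a : W) : V)) from
        hpow k _ _, ha, map_zero, mul_zero, zero_add]
      exact h0 b
    have hmem : (u : W) ∈ LinearMap.ker f ⊓ C := ⟨hker, u.2⟩
    rw [hC.inf_eq_bot, Submodule.mem_bot] at hmem
    exact bas.ne_zero (Sum.inr ⟨0, hpos⟩) (hud ▸ Subtype.ext hmem)

/-- The conclusions for an invariant nondegenerate subspace of a unipotent isometry. -/
theorem sub_multiset (h2 : (2 : F) ≠ 0) (hB : ∀ u v, B u v = B v u) (hBn : ∀ u, (∀ v, B u v = 0) → u = 0)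
    {x : Module.End F V} (hx : ∀ u v, B (x u) (x v) = B u v) {P : ℕ} (hP : 1 ≤ P)
    (hN : (x - 1) ^ P = 0) (hxP : x ^ P = 1)
    {μ : Multiset ℕ} (hμ : ∀ k, rkOn (x - 1) ⊤ k = rankSum μ k) (hμ0 : ∀ a ∈ μ, 0 < a ∧ a ≤ P)
    {W : Submodule F V} (hW : ∀ u ∈ W, (∀ v ∈ W, B u v = 0) → u = 0) (hxW : W.map x ≤ W) :
    ∃ ν : Multiset ℕ, ν ≤ μ ∧ ν.sum = finrank F W ∧ (∀ e : ℕ, Even e → Even (ν.count e)) ∧
      ((∀ a ∈ ν, a = 2) → ∃ U ≤ W, (∀ u ∈ U, B u u = 0) ∧ 2 * finrank F U = finrank F W) := by
  classical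
  set N : Module.End F V := x - 1 with hNd
  have hNa : ∀ u, N u = x u - u := fun u => rfl
  have hNW : W.map N ≤ W := by
    rintro _ ⟨u, hu, rfl⟩
    rw [hNa]
    exact W.sub_mem (hxW ⟨u, hu, rfl⟩) hu
  have hinvP : ∀ u, (x ^ (P - 1)) (x u) = u := fun u => by
    rw [← Module.End.mul_apply, ← pow_succ, Nat.sub_add_cancel hP, hxP, Module.End.one_apply]
  have hxinj : Function.Injective x := Function.LeftInverse.injective (g := ⇑(x ^ (P - 1))) hinvP
  have hxWe : W.map x = W := Submodule.eq_of_le_of_finrank_le hxW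
    (by rw [← (Submodule.equivMapOfInjective x hxinj W).finrank_eq])
  set O := B.orthogonal W with hOd
  have hOmem : ∀ v, v ∈ O ↔ ∀ w ∈ W, B w v = 0 := fun v => LinearMap.BilinForm.mem_orthogonal_iff
  have hdisj : W ⊓ O = ⊥ := (Submodule.eq_bot_iff _).2 fun u ⟨hu, hu'⟩ =>
    hW u hu fun v hv => by rw [hB]; exact (hOmem u).1 hu' v hv
  have htop : W ⊔ O = ⊤ := by
    have hrefl : LinearMap.BilinForm.IsRefl B := fun u v h => by rw [hB]; exact h
    have hnd : B.Nondegenerate := ⟨hBn, fun v h => hBn v fun u => by rw [hB]; exact h u⟩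
    refine Submodule.eq_top_of_finrank_eq ?_
    have h1 := Submodule.finrank_sup_add_finrank_inf_eq W O
    rw [hdisj, finrank_bot, add_zero] at h1
    rw [h1]
    have h3 := LinearMap.BilinForm.finrank_orthogonal hnd W
    have h4 := W.finrank_le
    rw [← hOd] at h3; omega
  have hNO : O.map N ≤ O := by
    rintro _ ⟨v, hv, rfl⟩
    refine (hOmem _).2 fun w hw => ?_
    obtain ⟨w', hw', rfl⟩ : w ∈ W.map x := by rw [hxWe]; exact hw
    have h0 : B (x w') v = 0 := (hOmem v).1 hv _ (hxW ⟨w', hw', rfl⟩)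
    rw [hNa, map_sub, hx, (hOmem v).1 hv _ hw', h0, sub_zero]
  have hpowW : ∀ (S : Submodule F V), S.map N ≤ S → ∀ k, S.map (N ^ k) ≤ S := by
    intro S hS k
    induction k with
    | zero => rw [pow_zero, Module.End.one_eq_id, Submodule.map_id]
    | succ k ih => rw [map_succ]; exact (Submodule.map_mono ih).trans hS
  have hadd : ∀ k, rankSum μ k = rkOn N W k + rkOn N O k := by
    intro k
    rw [← hμ k, rkOn, ← htop, Submodule.map_sup]
    have h1 := Submodule.finrank_sup_add_finrank_inf_eq (W.map (N ^ k)) (O.map (N ^ k))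
    have h0 : W.map (N ^ k) ⊓ O.map (N ^ k) = ⊥ :=
      eq_bot_iff.2 ((inf_le_inf (hpowW W hNW k) (hpowW O hNO k)).trans hdisj.le)
    rw [h0, finrank_bot, add_zero] at h1
    exact h1
  have hzero : ∀ k, P ≤ k → rkOn N W k = 0 := by
    intro k hk
    rw [rkOn, show N ^ k = 0 by rw [← Nat.sub_add_cancel hk, pow_add, hN, mul_zero], Submodule.map_zero, finrank_bot]
  -- the skew map
  set u₁ : Module.End F V := 1 + x ^ (P - 1) with hu₁
  set z : Module.End F V := x - x ^ (P - 1) with hzd
  have hcomm : Commute N u₁ :=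
    Commute.add_right (Commute.one_right _) (Commute.pow_right ((Commute.refl x).sub_left (Commute.one_left x)) _)
  have hzN : z = N * u₁ := by
    have : x * x ^ (P - 1) = 1 := by rw [← pow_succ', Nat.sub_add_cancel hP, hxP]
    rw [hzd, hNd, hu₁, mul_add, mul_one, sub_mul, one_mul, this]
    abel
  have hzskew : ∀ u v, B (z u) v = - B u (z v) := by
    intro u v
    have h1 : ∀ a b, B (x a) b = B a ((x ^ (P - 1)) b) := fun a b => by
      have := hx a ((x ^ (P - 1)) b)
      rw [← Module.End.mul_apply x (x ^ (P - 1)), ← pow_succ', Nat.sub_add_cancel hP, hxP, Module.End.one_apply] at this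
      exact this
    have h3 : B ((x ^ (P - 1)) u) v = B u (x v) := by rw [hB, ← h1, hB]
    simp only [hzd, LinearMap.sub_apply, map_sub, h1, h3]
    ring
  have hxpowW : ∀ (n : ℕ), ∀ u ∈ W, (x ^ n) u ∈ W := by
    intro n
    induction n with
    | zero => intro u hu; simpa using hu
    | succ n ih => intro u hu; rw [pow_succ', Module.End.mul_apply]; exact hxW ⟨_, ih u hu, rfl⟩
  have hzW : ∀ u ∈ W, z u ∈ W := fun u hu => by
    rw [hzd, LinearMap.sub_apply]
    exact W.sub_mem (hxW ⟨u, hu, rfl⟩) (hxpowW _ u hu)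
  have hu₁W : ∀ u ∈ W, u₁ u ∈ W := fun u hu => W.add_mem hu (hxpowW _ u hu)
  have hu₁inj : Function.Injective u₁ := (injective_iff_map_eq_zero u₁).2 fun v hv => by
    have h1 : x v + v = 0 := by
      have h0 : x (v + (x ^ (P - 1)) v) = x 0 := congrArg x hv
      rw [map_add, map_zero, ← Module.End.mul_apply x (x ^ (P - 1)), ← pow_succ', Nat.sub_add_cancel hP, hxP,
        Module.End.one_apply] at h0
      exact h0
    have h3 : N v = (-2 : F) • v := by
      rw [hNa, eq_neg_of_add_eq_zero_left h1]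
      module
    have h4 : ∀ n : ℕ, (N ^ n) v = ((-2 : F) ^ n) • v := by
      intro n
      induction n with
      | zero => simp
      | succ n ih => rw [pow_succ', Module.End.mul_apply, ih, map_smul, h3, smul_smul, ← pow_succ]
    have h5 := h4 P
    rw [hN, LinearMap.zero_apply] at h5
    exact (smul_eq_zero.1 h5.symm).resolve_left (pow_ne_zero _ (neg_ne_zero.2 h2))
  have hu₁We : ∀ k : ℕ, W.map (u₁ ^ k) = W := by
    have h1 : W.map u₁ = W := Submodule.eq_of_le_of_finrank_le (fun w ⟨u, hu, h⟩ => h ▸ hu₁W u hu)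
      (by rw [← (Submodule.equivMapOfInjective u₁ hu₁inj W).finrank_eq])
    intro k
    induction k with
    | zero => rw [pow_zero, Module.End.one_eq_id, Submodule.map_id]
    | succ k ih => rw [map_succ, ih, h1]
  have hzmap : ∀ k, W.map (z ^ k) = W.map (N ^ k) := fun k => by
    rw [hzN, hcomm.mul_pow, show N ^ k * u₁ ^ k = (N ^ k).comp (u₁ ^ k) from rfl, Submodule.map_comp, hu₁We]
  have heven : ∀ k, Odd k → Even (rkOn N W k) := fun k hk => by
    have h1 := even_rkOn h2 hB hW hzskew hzW hk
    rwa [rkOn, hzmap] at h1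
  -- the multiset
  let ν : Multiset ℕ := ∑ e ∈ Finset.Icc 1 P, Multiset.replicate (blocks (rkOn N W) e) e
  have hcount : ∀ a, ν.count a = if a ∈ Finset.Icc 1 P then blocks (rkOn N W) a else 0 := by
    intro a
    simp only [ν, Multiset.count_sum', Multiset.count_replicate]
    rw [Finset.sum_ite_eq']
  have hconv := rkOn_convex (N := N) hNW
  have hsum : ν.sum = finrank F W := by
    rw [← rkOn_zero N W, ← sum_blocks (rkOn N W) hconv hzero]
    simp only [ν]
    rw [show (∑ e ∈ Finset.Icc 1 P, Multiset.replicate (blocks (rkOn N W) e) e).sum =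
      Multiset.sumAddMonoidHom (∑ e ∈ Finset.Icc 1 P, Multiset.replicate (blocks (rkOn N W) e) e) from rfl, map_sum]
    exact Finset.sum_congr rfl fun e _ => by
      rw [Multiset.coe_sumAddMonoidHom, Multiset.sum_replicate, smul_eq_mul, mul_comm]
  refine ⟨ν, Multiset.le_iff_count.2 fun a => ?_, hsum, fun a ha => ?_, fun hall => ?_⟩
  · rw [hcount]
    split_ifs with hmem
    · obtain ⟨ha1, -⟩ := Finset.mem_Icc.1 hmem
      have hb := blocks_rankSum μ ha1
      rw [hadd, hadd, hadd] at hb
      obtain ⟨a', rfl⟩ : ∃ a', a = a' + 1 := ⟨a - 1, by omega⟩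
      have hc := rkOn_convex (N := N) hNO a'
      have hc' := hconv a'
      simp only [blocks, Nat.add_sub_cancel, show a' + 1 + 1 = a' + 2 from rfl] at hb ⊢
      omega
    · exact Nat.zero_le _
  · rw [hcount]
    split_ifs with hmem
    · obtain ⟨ha1, -⟩ := Finset.mem_Icc.1 hmem
      obtain ⟨a', rfl⟩ : ∃ a', a = a' + 1 := ⟨a - 1, by omega⟩
      have ho : Odd a' := by simpa [Nat.even_add_one] using ha
      obtain ⟨s, hs⟩ := heven a' ho
      obtain ⟨t, ht⟩ := heven (a' + 2) (by simpa [Nat.odd_add] using ho)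
      have hc' := hconv a'
      refine ⟨s + t - rkOn N W (a' + 1), ?_⟩
      simp only [blocks, Nat.add_sub_cancel, show a' + 1 + 1 = a' + 2 from rfl]
      omega
    · exact Even.zero
  · have hb : ∀ a, a ∈ Finset.Icc 1 P → a ≠ 2 → blocks (rkOn N W) a = 0 := fun a ha hne => by
      have h1 := hcount a
      rw [if_pos ha] at h1
      rw [← h1, Multiset.count_eq_zero]
      exact fun hmem => hne (hall a hmem)
    -- no blocks above two
    have hr2 : ∀ j, rkOn N W (2 + j) = rkOn N W 2 - j * (rkOn N W 2 - rkOn N W 3) ∧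
        rkOn N W (2 + j) - rkOn N W (3 + j) = rkOn N W 2 - rkOn N W 3 := by
      intro j
      induction j with
      | zero => exact ⟨by simp, rfl⟩
      | succ j ih =>
        have hmono : ∀ i, rkOn N W (i + 1) ≤ rkOn N W i := fun i => by
          unfold rkOn
          rw [pow_succ, show N ^ i * N = (N ^ i).comp N from rfl, Submodule.map_comp]
          exact Submodule.finrank_mono (Submodule.map_mono hNW)
        have h1 : rkOn N W (2 + j) - rkOn N W (3 + j) = rkOn N W (3 + j) - rkOn N W (4 + j) := by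
          have hc := hconv (2 + j)
          have e1 := hmono (2 + j)
          have e2 := hmono (3 + j)
          simp only [show 2 + j + 1 = 3 + j by omega, show 2 + j + 2 = 4 + j by omega,
            show 3 + j + 1 = 4 + j by omega] at hc e1 e2
          rcases le_or_gt (3 + j) P with hle | hgt
          · have hbj := hb (3 + j) (Finset.mem_Icc.2 ⟨by omega, hle⟩) (by omega)
            simp only [blocks, show 3 + j - 1 = 2 + j by omega, show 3 + j + 1 = 4 + j by omega] at hbj
            omega
          · have z1 := hzero (2 + j) (by omega)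
            omega
        have e1 := hmono (2 + j)
        simp only [show 2 + j + 1 = 3 + j by omega] at e1
        refine ⟨?_, ?_⟩
        · rw [show 2 + (j + 1) = 3 + j by omega, Nat.succ_mul]
          omega
        · rw [show 2 + (j + 1) = 3 + j by omega, show 3 + (j + 1) = 4 + j by omega]
          omega
    have h20 : rkOn N W 2 = 0 := by
      have h3 := (hr2 P).2
      rw [hzero (2 + P) (by omega)] at h3
      have h4 := (hr2 P).1
      rw [hzero (2 + P) (by omega)] at h4
      simp only [Nat.zero_sub] at h3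
      rw [← h3, mul_zero, Nat.sub_zero] at h4
      exact h4.symm
    have h10 : rkOn N W 0 = 2 * rkOn N W 1 := by
      have hb1 := hb 1 (Finset.mem_Icc.2 ⟨le_rfl, hP⟩) (by omega)
      have hc := hconv 0
      simp only [blocks] at hb1
      simp only [zero_add, Nat.sub_self] at hb1 hc
      omega
    refine ⟨W.map (N ^ 1), hpowW W hNW 1, ?_, ?_⟩
    · intro u hu
      rw [← hzmap] at hu
      obtain ⟨w, hw, rfl⟩ := hu
      rw [pow_one, hzskew]
      have hz2 : (z ^ 2) w = 0 := by
        have : (z ^ 2) w ∈ W.map (z ^ 2) := ⟨w, hw, rfl⟩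
        rw [hzmap, Submodule.finrank_eq_zero.1 h20, Submodule.mem_bot] at this
        exact this
      rw [sq, Module.End.mul_apply] at hz2
      rw [hz2, map_zero, neg_zero]
    · rw [← rkOn_zero N W, h10]
      rfl

end CfsgLib.OrthUnip
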