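import Cfsg.Agent.OrthUnip.Model
import Cfsg.Agent.Forms.Standard
import Mathlib

/-!
Partitions forced by invariant nondegenerate subspaces of `p`-elements.
-/

set_option autoImplicit false

namespace CfsgLib.OrthUnip

open Module Matrix

variable {F : Type*} [Field F] [Fintype F] {ι : Type} [Fintype ι] [DecidableEq ι]

omit [Fintype F] in
/-- An element with `x ^ p = 1` other than one is not scalar. -/
theorem not_scalar [Nonempty ι] {p : ℕ} [hp : Fact p.Prime] [CharP F p] {x : GL ι F} (hxp : x ^ p = 1)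
    (hx1 : x ≠ 1) (z : F) : (x : Matrix ι ι F) ≠ z • (1 : Matrix ι ι F) := by
  intro h
  refine hx1 (Units.ext ?_)
  have h1 : ((x ^ p : GL ι F) : Matrix ι ι F) = 1 := by rw [hxp, Units.val_one]
  rw [Units.val_pow_eq_pow_val, h, smul_pow, one_pow] at h1
  obtain ⟨i⟩ := ‹Nonempty ι›
  have h2 : z ^ p = 1 := by simpa using congrFun (congrFun h1 i) i
  have h3 : (z - 1) ^ p = 0 := by rw [sub_pow_char, one_pow, h2, sub_self]
  rw [h, sub_eq_zero.1 (pow_eq_zero_iff hp.out.ne_zero |>.1 h3), one_smul, Units.val_one]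

/-- The partition of an invariant subspace, for partitions with an odd part. -/
theorem key {p : ℕ} [hp : Fact p.Prime] [CharP F p] (hp2 : p ≠ 2) (Q : QuadraticForm F (ι → F))
    (hQ : (QuadraticMap.polarBilin Q).Nondegenerate) (hdim : 2 ≤ Fintype.card ι) {m : ℕ} (hm : 1 ≤ m)
    (hmn : m ≤ Fintype.card ι) (P : Submodule F (ι → F) → Prop)
    (hall : ∀ x : GL ι F, x ∈ Cfsg.Geo.omegaGL ⇑Q → x ^ p = 1 → x ≠ 1 →
      ∃ W : Submodule F (ι → F), (finrank F W = m ∧ Cfsg.Geo.IsNondegenerateOn (QuadraticMap.polar Q) W ∧ P W) ∧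
        W.map (Matrix.toLin' (x : Matrix ι ι F)) ≤ W)
    (μ : Multiset ℕ) (hμ : ∀ a ∈ μ, 0 < a ∧ a ≤ p) (hev : ∀ a : ℕ, Even a → Even (μ.count a))
    (hodd : ∃ a ∈ μ, Odd a) (hsum : μ.sum = Fintype.card ι) :
    ∃ ν : Multiset ℕ, ν ≤ μ ∧ ν.sum = m ∧ (∀ e : ℕ, Even e → Even (ν.count e)) ∧
      ((∀ a ∈ ν, a = 2) → ∃ W : Submodule F (ι → F), P W ∧ Cfsg.Geo.IsPlusTypeOn ⇑Q W) := by
  classical
  have h2 : (2 : F) ≠ 0 := fun h => hp2 ((Nat.prime_dvd_prime_iff_eq hp.out Nat.prime_two).1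
    ((CharP.cast_eq_zero_iff F p 2).1 (by exact_mod_cast h)))
  haveI : Nonempty ι := Fintype.card_pos_iff.1 (by omega)
  obtain ⟨x, hxm, hxp, hrk⟩ := exists_unip hp2 Q hQ hdim μ hμ hev hodd hsum
  by_cases hx1 : x = 1
  · -- all parts are one
    have h1 : rankSum μ 1 = 0 := by
      have h0 : Matrix.toLin' ((1 : GL ι F) : Matrix ι ι F) - 1 = 0 := by
        rw [Units.val_one, Matrix.toLin'_one, Module.End.one_eq_id, sub_self]
      rw [← hrk 1, hx1, h0, rkOn, pow_one, Submodule.map_zero, finrank_bot]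
    have hall1 : ∀ a ∈ μ, a = 1 := fun a ha => by
      have h3 := Multiset.sum_eq_zero_iff.1 h1 (a - 1) (Multiset.mem_map_of_mem _ ha)
      have := (hμ a ha).1
      omega
    have hrep : μ = Multiset.replicate (Multiset.card μ) 1 := Multiset.eq_replicate.2 ⟨rfl, hall1⟩
    have hcard : Multiset.card μ = Fintype.card ι := by
      rw [← hsum]; conv_rhs => rw [hrep, Multiset.sum_replicate, smul_eq_mul, mul_one]
    refine ⟨Multiset.replicate m 1, ?_, by simp, fun e he => ?_, fun h => ?_⟩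
    · rw [hrep, hcard]; exact (Multiset.replicate_le_replicate 1).2 hmn
    · rw [Multiset.count_replicate]
      split_ifs with h
      · subst h; exact absurd he Nat.not_even_one
      · exact Even.zero
    · exact absurd (h 1 (Multiset.mem_replicate.2 ⟨by omega, rfl⟩)) (by omega)
  · obtain ⟨W, ⟨hWm, hWn, hWP⟩, hxW⟩ := hall x hxm hxp hx1
    have hX : ∀ u v, QuadraticMap.polarBilin Q (Matrix.toLin' (x : Matrix ι ι F) u)
        (Matrix.toLin' (x : Matrix ι ι F) v) = QuadraticMap.polarBilin Q u v := by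
      obtain ⟨y, -, rfl⟩ := Forms.mem_omegaGL.1 hxm
      intro u v
      have hy := Forms.mem_isometryGroup.1 y.2
      simp only [QuadraticMap.polarBilin_apply_apply, QuadraticMap.polar, Matrix.toLin'_apply, ← Matrix.mulVec_add, hy]
    have hXp : Matrix.toLin' (x : Matrix ι ι F) ^ p = 1 := by
      have h1 := map_pow (Matrix.toLinAlgEquiv' (R := F) (n := ι)) (x : Matrix ι ι F) p
      rw [← Units.val_pow_eq_pow_val, hxp, Units.val_one, map_one] at h1
      exact h1.symm
    haveI : CharP (Module.End F (ι → F)) p :=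
      charP_of_injective_algebraMap (algebraMap F (Module.End F (ι → F))).injective p
    have hN : (Matrix.toLin' (x : Matrix ι ι F) - 1) ^ p = 0 := by
      rw [sub_pow_char_of_commute p (Commute.one_right _), one_pow, hXp, sub_self]
    obtain ⟨ν, hle, hνs, hνe, hU⟩ := sub_multiset h2
      (B := QuadraticMap.polarBilin Q) (fun u v => QuadraticMap.polar_comm _ u v)
      (fun u h => Forms.nondegenerate_iff.1 hQ u h) hX hp.out.one_le hN hXp hrk hμ
      (W := W) (fun u hu h => by_contra fun h0 => by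
        obtain ⟨-, ⟨v, hv, hne⟩⟩ := hWn u hu h0
        exact hne (h v hv)) hxW
    refine ⟨ν, hle, hνs.trans hWm, hνe, fun h => ?_⟩
    obtain ⟨U, hUW, hU0, hUd⟩ := hU h
    refine ⟨W, hWP, U, hUW, fun u hu => ?_, hUd⟩
    have h1 : (2 : F) * Q u = 0 := by
      have h3 := hU0 u hu
      rwa [QuadraticMap.polarBilin_apply_apply, QuadraticMap.polar_self, two_smul, ← two_mul] at h3
    exact (mul_eq_zero.1 h1).resolve_left h2

/-- The conversion for partitions without odd part. -/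
theorem of_odd {p n m : ℕ} (hp : Odd p) (hn : 0 < n) (hm : Even m)
    (H : ∀ μ : Multiset ℕ, (∀ a ∈ μ, 0 < a ∧ a ≤ p) → (∀ a : ℕ, Even a → Even (μ.count a)) → (∃ a ∈ μ, Odd a) →
      μ.sum = n → ∃ ν : Multiset ℕ, ν ≤ μ ∧ ν.sum = m ∧ ∀ e : ℕ, Even e → Even (ν.count e))
    (μ : Multiset ℕ) (hμ : ∀ a ∈ μ, 0 < a ∧ a ≤ p) (hev : ∀ a : ℕ, Even a → Even (μ.count a)) (hsum : μ.sum = n) :
    ∃ ν : Multiset ℕ, ν ≤ μ ∧ ν.sum = m ∧ ∀ e : ℕ, Even e → Even (ν.count e) := by
  by_cases hodd : ∃ a ∈ μ, Odd a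
  · exact H μ hμ hev hodd hsum
  push Not at hodd
  have hall : ∀ a ∈ μ, Even a := fun a ha => Nat.not_odd_iff_even.1 (hodd a ha)
  obtain ⟨e, he⟩ : ∃ e, e ∈ μ := Multiset.exists_mem_of_ne_zero (fun h => by simp [h] at hsum; omega)
  obtain ⟨e', rfl⟩ : ∃ e', e = e' + 2 := ⟨e - 2, by
    have h1 := (hμ e he).1
    obtain ⟨t, rfl⟩ := hall e he
    omega⟩
  obtain ⟨ρ₁, rfl⟩ := Multiset.exists_cons_of_mem he
  obtain ⟨ρ, rfl⟩ : ∃ ρ, ρ₁ = (e' + 2) ::ₘ ρ := by
    refine Multiset.exists_cons_of_mem ?_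
    have h1 := hev _ (hall _ he)
    rw [Multiset.count_cons_self] at h1
    rw [← Multiset.count_pos]
    obtain ⟨t, ht⟩ := h1
    omega
  have heven : Even (e' + 2) := hall _ he
  have hρ : ∀ a ∈ ρ, Even a := fun a ha => hall a (Multiset.mem_cons_of_mem (Multiset.mem_cons_of_mem ha))
  have hep : e' + 3 ≤ p := by
    have h1 := (hμ _ he).2
    rcases h1.eq_or_lt with h | h
    · rw [h] at heven; exact absurd heven (Nat.not_even_iff_odd.2 hp)
    · omega
  have hoa : Odd (e' + 3) := heven.add_one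
  have hob : Odd (e' + 1) := by
    obtain ⟨t, ht⟩ := heven
    exact ⟨t - 1, by omega⟩
  have hne : ∀ {a b : ℕ}, Even a → Odd b → a ≠ b := fun ha hb h => Nat.not_even_iff_odd.2 hb (h ▸ ha)
  have hcnt : ∀ a, Even a → Even (ρ.count a) := fun a ha => by
    have h1 := hev a ha
    simp only [Multiset.count_cons] at h1
    split_ifs at h1 with h
    · obtain ⟨t, ht⟩ := h1; exact ⟨t - 1, by omega⟩
    · simpa using h1
  obtain ⟨ν, hle, hνs, hνe⟩ := H ((e' + 3) ::ₘ (e' + 1) ::ₘ ρ)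
    (fun a ha => by
      rcases Multiset.mem_cons.1 ha with rfl | ha
      · omega
      rcases Multiset.mem_cons.1 ha with rfl | ha
      · omega
      exact hμ a (Multiset.mem_cons_of_mem (Multiset.mem_cons_of_mem ha)))
    (fun a ha => by
      rw [Multiset.count_cons_of_ne (hne ha hoa), Multiset.count_cons_of_ne (hne ha hob)]
      exact hcnt a ha)
    ⟨_, Multiset.mem_cons_self _ _, hoa⟩
    (by simp only [Multiset.sum_cons] at hsum ⊢; omega)
  have hevsum : ∀ s : Multiset ℕ, s ≤ ρ → Even s.sum := fun s hs =>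
    even_iff_two_dvd.2 (Multiset.dvd_sum fun a ha => even_iff_two_dvd.1 (hρ a (Multiset.mem_of_le hs ha)))
  have hbρ : e' + 1 ∉ ρ := fun h => hne (hρ _ h) hob rfl
  by_cases ha : e' + 3 ∈ ν
  · obtain ⟨ν₁, rfl⟩ := Multiset.exists_cons_of_mem ha
    have hle1 := (Multiset.cons_le_cons_iff _).1 hle
    by_cases hb : e' + 1 ∈ ν₁
    · obtain ⟨ν₂, rfl⟩ := Multiset.exists_cons_of_mem hb
      have hle2 := (Multiset.cons_le_cons_iff _).1 hle1
      refine ⟨(e' + 2) ::ₘ (e' + 2) ::ₘ ν₂, Multiset.cons_le_cons _ (Multiset.cons_le_cons _ hle2), ?_, fun c hc => ?_⟩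
      · simp only [Multiset.sum_cons] at hνs ⊢; omega
      · have h1 := hνe c hc
        rw [Multiset.count_cons_of_ne (hne hc hoa), Multiset.count_cons_of_ne (hne hc hob)] at h1
        simp only [Multiset.count_cons]
        split_ifs
        · obtain ⟨t, ht⟩ := h1; exact ⟨t + 1, by omega⟩
        · simpa using h1
    · have h1 := hevsum ν₁ ((Multiset.le_cons_of_notMem hb).1 hle1)
      rw [Multiset.sum_cons] at hνs
      exact absurd (hνs ▸ hm) (Nat.not_even_iff_odd.2 (hoa.add_even h1))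
  · have hle1 := (Multiset.le_cons_of_notMem ha).1 hle
    by_cases hb : e' + 1 ∈ ν
    · obtain ⟨ν₂, rfl⟩ := Multiset.exists_cons_of_mem hb
      have h1 := hevsum ν₂ ((Multiset.cons_le_cons_iff _).1 hle1)
      rw [Multiset.sum_cons] at hνs
      exact absurd (hνs ▸ hm) (Nat.not_even_iff_odd.2 (hob.add_even h1))
    · exact ⟨ν, ((Multiset.le_cons_of_notMem hb).1 hle1).trans ((Multiset.le_cons_self _ _).trans
        (Multiset.le_cons_self _ _)), hνs, hνe⟩

/-- A multiset with small parts. -/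
theorem sum_small (ν : Multiset ℕ) (h : ∀ a ∈ ν, a = 1 ∨ a = 2 ∨ a = 3) :
    ν.sum = ν.count 1 + 2 * ν.count 2 + 3 * ν.count 3 := by
  induction ν using Multiset.induction with
  | empty => simp
  | cons a s ih =>
    have h1 := ih fun b hb => h b (Multiset.mem_cons_of_mem hb)
    rcases h a (Multiset.mem_cons_self a s) with rfl | rfl | rfl <;>
      simp only [Multiset.sum_cons, Multiset.count_cons] <;> norm_num <;> omega

end CfsgLib.OrthUnip
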