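import Cfsg.Agent.OrthUnip.Count
import Cfsg.Agent.Forms.Classify
import Cfsg.Agent.Forms.Matrix
import Cfsg.Agent.Forms.GeoBridge
import Mathlib

/-!
Unipotent elements of `Ω` with given blocks.
-/

set_option autoImplicit false

namespace CfsgLib.OrthUnip

open Module Matrix

variable {F : Type*} [Field F]

section Model

variable {T : Type} [Fintype T] [DecidableEq T] (len : T → ℕ)

/-- The index set. -/
abbrev Idx : Type := Σ i : T, Fin (len i)

/-- Coordinates extended to the natural numbers. -/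
def ext (u : Idx len → F) (i : T) (j : ℕ) : F := if h : j < len i then u ⟨i, ⟨j, h⟩⟩ else 0

variable {len}

theorem ext_add (u v : Idx len → F) (i : T) (j : ℕ) : ext len (u + v) i j = ext len u i j + ext len v i j := by
  unfold ext; split_ifs <;> simp

theorem ext_smul (c : F) (u : Idx len → F) (i : T) (j : ℕ) : ext len (c • u) i j = c * ext len u i j := by
  unfold ext; split_ifs <;> simp

theorem ext_of_lt (u : Idx len → F) (p : Idx len) : ext len u p.1 p.2 = u p := by
  unfold ext; rw [dif_pos p.2.isLt]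

/-- The shift. -/
def shift (len : T → ℕ) : Module.End F (Idx len → F) where
  toFun u p := if (p.2 : ℕ) = 0 then 0 else ext len u p.1 ((p.2 : ℕ) - 1)
  map_add' u v := funext fun p => by simp only [Pi.add_apply, ext_add]; split_ifs <;> simp
  map_smul' c u := funext fun p => by simp only [Pi.smul_apply, ext_smul, RingHom.id_apply]; split_ifs <;> simp

theorem ext_shift (u : Idx len → F) (i : T) {j : ℕ} (hj : j < len i) :
    ext len (shift len u) i j = if j = 0 then 0 else ext len u i (j - 1) := by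
  show dite _ _ _ = _
  rw [dif_pos hj]
  rfl

theorem shift_pow (k : ℕ) (u : Idx len → F) (p : Idx len) :
    ((shift len) ^ k) u p = if (p.2 : ℕ) < k then 0 else ext len u p.1 ((p.2 : ℕ) - k) := by
  induction k generalizing u with
  | zero => simp [ext_of_lt]
  | succ k ih =>
    rw [pow_succ, Module.End.mul_apply, ih]
    have hp := p.2.isLt
    by_cases h : (p.2 : ℕ) < k
    · rw [if_pos h, if_pos (by omega)]
    · rw [if_neg h, ext_shift u p.1 (show (p.2 : ℕ) - k < len p.1 by omega)]
      by_cases h0 : (p.2 : ℕ) = k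
      · rw [if_pos (by omega), if_pos (by omega)]
      · rw [if_neg (by omega), if_neg (by omega), Nat.sub_sub]

theorem card_ge (k L : ℕ) : Fintype.card {j : Fin L // k ≤ (j : ℕ)} = L - k := by
  rw [← Fintype.card_fin (L - k)]
  exact Fintype.card_congr
    { toFun := fun j => ⟨j.1 - k, by have := j.1.isLt; have := j.2; omega⟩
      invFun := fun t => ⟨⟨t.1 + k, by have := t.isLt; omega⟩, by simp⟩
      left_inv := fun j => Subtype.ext (Fin.ext (Nat.sub_add_cancel j.2))
      right_inv := fun t => Fin.ext (by simp) }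

theorem shift_rank (k : ℕ) : finrank F (LinearMap.range ((shift (F := F) len) ^ k)) = ∑ i, (len i - k) := by
  classical
  let J := Σ i : T, {j : Fin (len i) // k ≤ (j : ℕ)}
  let ι : (J → F) →ₗ[F] (Idx len → F) :=
    { toFun := fun w p => if h : k ≤ (p.2 : ℕ) then w ⟨p.1, p.2, h⟩ else 0
      map_add' := fun a b => funext fun p => by simp only [Pi.add_apply]; split_ifs <;> simp
      map_smul' := fun c a => funext fun p => by
        simp only [Pi.smul_apply, RingHom.id_apply]; split_ifs <;> simp }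
  have hι : Function.Injective ι := fun a b h => funext fun ⟨i, j, hj⟩ => by
    have := congrFun h ⟨i, j⟩
    simpa [ι, hj] using this
  have hr : LinearMap.range ((shift (F := F) len) ^ k) = LinearMap.range ι := by
    refine le_antisymm ?_ ?_
    · rintro _ ⟨u, rfl⟩
      refine ⟨fun q => ((shift len) ^ k) u ⟨q.1, q.2.1⟩, funext fun p => ?_⟩
      show dite _ _ _ = _
      split_ifs with h
      · rfl
      · rw [shift_pow, if_pos (by omega)]
    · rintro _ ⟨w, rfl⟩
      refine ⟨fun p => if h : (p.2 : ℕ) + k < len p.1 then w ⟨p.1, ⟨(p.2 : ℕ) + k, h⟩, by simp⟩ else 0,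
        funext fun p => ?_⟩
      rw [shift_pow]
      show _ = dite _ _ _
      obtain ⟨i, j, hj⟩ := p
      by_cases h : j < k
      · rw [if_pos h, dif_neg (by simp; omega)]
      · rw [if_neg h, dif_pos (by simp; omega)]
        unfold ext
        rw [dif_pos (show j - k < len i by omega)]
        simp only [Nat.sub_add_cancel (not_lt.1 h)]
        rw [dif_pos hj]
  rw [hr, LinearMap.finrank_range_of_inj hι, Module.finrank_fintype_fun_eq_card, Fintype.card_sigma]
  exact Finset.sum_congr rfl fun i _ => card_ge k _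

variable (len) (π : T → T) (c : T → F)

/-- The form. -/
def form : LinearMap.BilinForm F (Idx len → F) :=
  LinearMap.mk₂ F (fun u v => ∑ i, c i * ∑ j ∈ Finset.range (len i), (-1) ^ j * ext len u i j * ext len v (π i) (len i - 1 - j))
    (fun a b v => by simp only [ext_add, mul_add, add_mul, Finset.sum_add_distrib])
    (fun s a v => by
      simp only [ext_smul, smul_eq_mul, Finset.mul_sum]
      exact Finset.sum_congr rfl fun i _ => Finset.sum_congr rfl fun j _ => by ring)
    (fun u a b => by simp only [ext_add, mul_add, Finset.sum_add_distrib])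
    (fun s u a => by
      simp only [ext_smul, smul_eq_mul, Finset.mul_sum]
      exact Finset.sum_congr rfl fun i _ => Finset.sum_congr rfl fun j _ => by ring)

variable {len} {π} {c}

theorem form_apply (u v : Idx len → F) : form len π c u v =
    ∑ i, c i * ∑ j ∈ Finset.range (len i), (-1) ^ j * ext len u i j * ext len v (π i) (len i - 1 - j) := rfl

theorem form_symm (hπ : ∀ i, π (π i) = i) (hlen : ∀ i, len (π i) = len i)
    (hc : ∀ i, c (π i) * (-1) ^ (len i + 1) = c i) (u v : Idx len → F) : form len π c u v = form len π c v u := by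
  rw [form_apply, form_apply]
  refine Fintype.sum_equiv (Function.Involutive.toPerm π hπ) _ _ fun i => ?_
  show _ = c (π i) * ∑ j ∈ Finset.range (len (π i)),
    (-1) ^ j * ext len v (π i) j * ext len u (π (π i)) (len (π i) - 1 - j)
  rw [hπ, hlen, Finset.mul_sum, Finset.mul_sum]
  conv_rhs => rw [← Finset.sum_range_reflect]
  refine Finset.sum_congr rfl fun j hj => ?_
  rw [Finset.mem_range] at hj
  rw [show len i - 1 - (len i - 1 - j) = j by omega, ← hc i]
  have e : ((-1 : F) ^ (len i + 1)) * (-1) ^ j = (-1) ^ (len i - 1 - j) := by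
    rw [← pow_add, show len i + 1 + j = (len i - 1 - j) + 2 * (j + 1) by omega, pow_add, pow_mul, neg_one_sq,
      one_pow, mul_one]
  rw [← e]
  ring

theorem form_skew (hlen : ∀ i, len (π i) = len i) (u v : Idx len → F) :
    form len π c (shift len u) v = - form len π c u (shift len v) := by
  rw [form_apply, form_apply, ← Finset.sum_neg_distrib]
  refine Finset.sum_congr rfl fun i _ => ?_
  rw [← mul_neg, ← Finset.sum_neg_distrib]
  congr 1
  rcases Nat.eq_zero_or_pos (len i) with h | h
  · rw [h]; simp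
  obtain ⟨n, hn⟩ : ∃ n, len i = n + 1 := ⟨len i - 1, by omega⟩
  rw [hn]
  conv_lhs => rw [Finset.sum_range_succ']
  conv_rhs => rw [Finset.sum_range_succ]
  congr 1
  · refine Finset.sum_congr rfl fun j hj => ?_
    rw [Finset.mem_range] at hj
    rw [ext_shift u i (show j + 1 < len i by omega), if_neg (Nat.succ_ne_zero j),
      ext_shift v (π i) (show n + 1 - 1 - j < len (π i) by rw [hlen]; omega), if_neg (by omega),
      show n + 1 - 1 - (j + 1) = n + 1 - 1 - j - 1 by omega, Nat.add_sub_cancel, pow_succ]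
    ring
  · rw [ext_shift u i (show 0 < len i by omega), if_pos rfl,
      ext_shift v (π i) (show n + 1 - 1 - n < len (π i) by rw [hlen]; omega), if_pos (by omega)]
    ring

theorem form_single (hlen : ∀ i, len (π i) = len i) (u : Idx len → F) (p : Idx len) :
    form len π c (Pi.single p 1) u =
      c p.1 * (-1) ^ (p.2 : ℕ) * ext len u (π p.1) (len p.1 - 1 - p.2) := by
  rw [form_apply, Finset.sum_eq_single p.1]
  · rw [Finset.sum_eq_single (p.2 : ℕ)]
    · rw [ext_of_lt, Pi.single_eq_same]; ring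
    · intro j hj hne
      rw [Finset.mem_range] at hj
      have : ext len (Pi.single p (1 : F) : Idx len → F) p.1 j = 0 := by
        unfold ext
        rw [dif_pos hj, Pi.single_eq_of_ne]
        intro h
        exact hne (congrArg (fun q : Idx len => (q.2 : ℕ)) h)
      rw [this]; ring
    · intro h; exact absurd (Finset.mem_range.2 p.2.isLt) h
  · intro i _ hne
    rw [Finset.sum_eq_zero, mul_zero]
    intro j hj
    rw [Finset.mem_range] at hj
    have : ext len (Pi.single p (1 : F) : Idx len → F) i j = 0 := by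
      unfold ext
      rw [dif_pos hj, Pi.single_eq_of_ne]
      intro h
      exact hne (congrArg Sigma.fst h)
    rw [this]; ring
  · intro h; exact absurd (Finset.mem_univ _) h

theorem form_nondeg (hπ : ∀ i, π (π i) = i) (hlen : ∀ i, len (π i) = len i) (hc0 : ∀ i, c i ≠ 0)
    (u : Idx len → F) (h : ∀ v, form len π c v u = 0) : u = 0 := by
  funext ⟨i, j⟩
  have hj := j.isLt
  have h1 := h (Pi.single (⟨π i, ⟨len i - 1 - j, by rw [hlen]; omega⟩⟩ : Idx len) 1)
  rw [form_single hlen] at h1
  simp only [hπ, hlen, show len i - 1 - (len i - 1 - (j : ℕ)) = j by omega] at h1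
  have h3 := (mul_eq_zero.1 h1).resolve_left (mul_ne_zero (hc0 _) (pow_ne_zero _ (neg_ne_zero.2 one_ne_zero)))
  rwa [ext_of_lt u ⟨i, j⟩] at h3

/-- Scaling a fixed point of the pairing. -/
theorem det_scale (hlen : ∀ i, len (π i) = len i) (i₀ : T) (s : F) :
    (LinearMap.BilinForm.toMatrix (Pi.basisFun F (Idx len)) (form len π (fun i => if i = i₀ then s * c i else c i))).det =
      s ^ len i₀ * (LinearMap.BilinForm.toMatrix (Pi.basisFun F (Idx len)) (form len π c)).det := by
  have h : LinearMap.BilinForm.toMatrix (Pi.basisFun F (Idx len)) (form len π (fun i => if i = i₀ then s * c i else c i)) =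
      Matrix.diagonal (fun p : Idx len => if p.1 = i₀ then s else 1) *
        LinearMap.BilinForm.toMatrix (Pi.basisFun F (Idx len)) (form len π c) := by
    ext p q
    rw [Matrix.diagonal_mul, LinearMap.BilinForm.toMatrix_apply, LinearMap.BilinForm.toMatrix_apply,
      Pi.basisFun_apply, Pi.basisFun_apply, form_single hlen, form_single hlen]
    split_ifs <;> ring
  rw [h, Matrix.det_mul, Matrix.det_diagonal]
  congr 1
  rw [Fintype.prod_sigma, Finset.prod_eq_single i₀]
  · simp
  · intro i _ hne; simp [hne]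
  · simp

end Model

variable [Fintype F] {ι : Type} [Fintype ι] [DecidableEq ι]

/-- An element of odd order of the isometry group lies in `Ω`. -/
theorem mem_omega_of_odd_pow (h2 : (2 : F) ≠ 0) (Q : QuadraticForm F (ι → F))
    (hQ : (QuadraticMap.polarBilin Q).Nondegenerate) (hdim : 2 ≤ Fintype.card ι)
    (g : Cfsg.isometryGroup F ⇑Q) {r : ℕ} (hr : Odd r) (hg : g ^ r = 1) : g ∈ Cfsg.Omega F ⇑Q := by
  have key : ∀ φ : Cfsg.isometryGroup F ⇑Q →* ℤˣ, φ g = 1 := fun φ => by
    have h1 : (φ g) ^ r = 1 := by rw [← map_pow, hg, map_one]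
    obtain ⟨k, rfl⟩ := hr
    rwa [pow_succ, pow_mul, Int.units_sq, one_pow, one_mul] at h1
  rw [Forms.mem_Omega_iff_kernels Q h2 hQ hdim]
  exact ⟨key ((Forms.detSign h2 hQ).comp (Forms.isoEquiv Q).toMonoidHom),
    key ((Forms.spin h2 hQ).comp (Forms.isoEquiv Q).toMonoidHom)⟩

/-- A unipotent element of `Ω` with prescribed blocks. -/
theorem exists_unip {p : ℕ} [hp : Fact p.Prime] [CharP F p] (hp2 : p ≠ 2) (Q : QuadraticForm F (ι → F))
    (hQ : (QuadraticMap.polarBilin Q).Nondegenerate) (hdim : 2 ≤ Fintype.card ι) (μ : Multiset ℕ)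
    (hμ : ∀ a ∈ μ, 0 < a ∧ a ≤ p) (hev : ∀ a : ℕ, Even a → Even (μ.count a)) (hodd : ∃ a ∈ μ, Odd a)
    (hsum : μ.sum = Fintype.card ι) :
    ∃ x : GL ι F, x ∈ Cfsg.Geo.omegaGL ⇑Q ∧ x ^ p = 1 ∧
      ∀ k, rkOn (Matrix.toLin' (x : Matrix ι ι F) - 1) ⊤ k = rankSum μ k := by
  classical
  have h2 : (2 : F) ≠ 0 := fun h => hp2 ((Nat.prime_dvd_prime_iff_eq hp.out Nat.prime_two).1
    ((CharP.cast_eq_zero_iff F p 2).1 (by exact_mod_cast h)))
  -- the blocks
  let H : Multiset ℕ := ∑ a ∈ (μ.filter Even).toFinset, Multiset.replicate (μ.count a / 2) a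
  let Lo := (μ.filter fun a => ¬ Even a).toList
  let Le := H.toList
  have hH2 : μ.filter Even = H + H := by
    refine Multiset.ext.2 fun a => ?_
    rw [Multiset.count_add]
    simp only [H, Multiset.count_sum', Multiset.count_replicate, Finset.sum_ite_eq', Multiset.mem_toFinset,
      Multiset.mem_filter, Multiset.count_filter]
    by_cases ha : Even a
    · obtain ⟨t, ht⟩ := hev a ha
      by_cases hm : a ∈ μ
      · rw [if_pos ha, if_pos ⟨hm, ha⟩]; omega
      · rw [if_pos ha, if_neg (fun h => hm h.1), Multiset.count_eq_zero.2 hm]; rfl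
    · rw [if_neg ha, if_neg (fun h => ha h.2)]; rfl
  let len : (Fin Lo.length ⊕ Fin Le.length × Bool) → ℕ := Sum.elim Lo.get (fun i => Le.get i.1)
  let π : (Fin Lo.length ⊕ Fin Le.length × Bool) → (Fin Lo.length ⊕ Fin Le.length × Bool) :=
    Sum.elim Sum.inl (fun i => Sum.inr (i.1, !i.2))
  have hπ : ∀ i, π (π i) = i := by rintro (i | ⟨i, b⟩) <;> simp [π]
  have hlen : ∀ i, len (π i) = len i := by rintro (i | ⟨i, b⟩) <;> simp [π, len]
  have hblocks : ∀ f : ℕ → ℕ, ∑ i, f (len i) = (μ.map f).sum := by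
    intro f
    rw [← Multiset.filter_add_not Even μ, Multiset.map_add, Multiset.sum_add, hH2, Multiset.map_add,
      Multiset.sum_add, Fintype.sum_sum_type, Fintype.sum_prod_type]
    have e : ∀ L : List ℕ, ∑ i : Fin L.length, f (L.get i) = ((L : Multiset ℕ).map f).sum := fun L => by
      rw [Multiset.map_coe, Multiset.sum_coe, ← List.sum_ofFn]
      congr 1
      rw [← List.ofFn_get L, List.map_ofFn]
      simp [Function.comp_def]
    simp only [len, Sum.elim_inl, Sum.elim_inr, Fintype.sum_bool, Finset.sum_add_distrib, e, Lo, Le, Multiset.coe_toList]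
    ring
  have hcard : Fintype.card (Idx len) = Fintype.card ι := by
    rw [Fintype.card_sigma]
    simp only [Fintype.card_fin]
    exact (hblocks fun a => a).trans (by rw [Multiset.map_id', hsum])
  have hLo : ∀ i, Odd (Lo.get i) := fun i => by
    have : Lo.get i ∈ μ.filter fun a => ¬ Even a := Multiset.mem_toList.1 (List.get_mem Lo i)
    exact Nat.not_even_iff_odd.1 (Multiset.mem_filter.1 this).2
  have hLe : ∀ i, Even (Le.get i) := fun i => by
    have h1 : Le.get i ∈ H := Multiset.mem_toList.1 (List.get_mem Le i)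
    have h3 : Le.get i ∈ μ.filter Even := by rw [hH2]; exact Multiset.mem_add.2 (Or.inl h1)
    exact (Multiset.mem_filter.1 h3).2
  obtain ⟨i₀, hi₀⟩ : ∃ i₀, Odd (len i₀) ∧ π i₀ = i₀ := by
    obtain ⟨a, ha, hao⟩ := hodd
    have : a ∈ Lo := Multiset.mem_toList.2 (Multiset.mem_filter.2 ⟨ha, Nat.not_even_iff_odd.2 hao⟩)
    obtain ⟨i, hi⟩ := List.mem_iff_get.1 this
    exact ⟨Sum.inl i, hLo i, rfl⟩
  let c₀ : (Fin Lo.length ⊕ Fin Le.length × Bool) → F := Sum.elim (fun _ => 1) (fun i => if i.2 then 1 else -1)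
  have hc₀ : ∀ i, c₀ (π i) * (-1) ^ (len i + 1) = c₀ i := by
    rintro (i | ⟨i, b⟩)
    · simp only [c₀, π, len, Sum.elim_inl, (hLo i).add_one.neg_one_pow, mul_one]
    · simp only [c₀, π, len, Sum.elim_inr, (hLe i).add_one.neg_one_pow]
      cases b <;> simp
  -- matching the discriminant
  obtain ⟨e⟩ := Fintype.card_eq.1 hcard
  let E : (Idx len → F) ≃ₗ[F] (ι → F) := LinearEquiv.funCongrLeft F F e.symm
  let Q₂ : QuadraticForm F (Idx len → F) := Q.comp E.toLinearMap
  have hQ₂p : ∀ a b, QuadraticMap.polar Q₂ a b = QuadraticMap.polar Q (E a) (E b) := fun a b => by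
    simp [Q₂, QuadraticMap.polar, map_add]
  have hQ₂ : (QuadraticMap.polarBilin Q₂).Nondegenerate := by
    refine Forms.nondegenerate_iff.2 fun a ha => E.injective ?_
    rw [map_zero]
    refine Forms.nondegenerate_iff.1 hQ (E a) fun b => ?_
    have := ha (E.symm b)
    rwa [hQ₂p, E.apply_symm_apply] at this
  let bI := Pi.basisFun F (Idx len)
  obtain ⟨d₂, hd₂⟩ : ∃ d, d = (Forms.gram Q₂ bI).det := ⟨_, rfl⟩
  obtain ⟨d₁, hd₁⟩ : ∃ d, d = (LinearMap.BilinForm.toMatrix bI (form len π c₀)).det := ⟨_, rfl⟩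
  have hd₂0 : d₂ ≠ 0 := hd₂ ▸ Forms.det_gram_ne_zero hQ₂ bI
  have hnd : ∀ c : (Fin Lo.length ⊕ Fin Le.length × Bool) → F, (∀ i, c i ≠ 0) →
      (∀ i, c (π i) * (-1) ^ (len i + 1) = c i) → (form len π c).Nondegenerate := fun c hc0 hc =>
    ⟨fun u h => form_nondeg hπ hlen hc0 u (fun v => by rw [form_symm hπ hlen hc]; exact h v),
      fun v h => form_nondeg hπ hlen hc0 v h⟩
  have hc₀0 : ∀ i, c₀ i ≠ 0 := by rintro (i | ⟨i, _ | _⟩) <;> simp [c₀]
  have hd₁0 : d₁ ≠ 0 := hd₁ ▸ (LinearMap.BilinForm.nondegenerate_iff_det_ne_zero bI).1 (hnd c₀ hc₀0 hc₀)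
  obtain ⟨s, hs⟩ : ∃ s, s = d₁ * d₂ := ⟨_, rfl⟩
  have hs0 : s ≠ 0 := hs ▸ mul_ne_zero hd₁0 hd₂0
  let c : (Fin Lo.length ⊕ Fin Le.length × Bool) → F := fun i => if i = i₀ then s * c₀ i else c₀ i
  have hc0 : ∀ i, c i ≠ 0 := fun i => by
    simp only [c]; split_ifs
    · exact mul_ne_zero hs0 (hc₀0 i)
    · exact hc₀0 i
  have hc : ∀ i, c (π i) * (-1) ^ (len i + 1) = c i := fun i => by
    have hiff : π i = i₀ ↔ i = i₀ := ⟨fun h => by rw [← hπ i, h, hi₀.2], fun h => by rw [h, hi₀.2]⟩
    simp only [c, hiff]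
    split_ifs with h
    · rw [mul_assoc, hc₀]
    · exact hc₀ i
  let B := form len π c
  let Q₁ : QuadraticForm F (Idx len → F) := LinearMap.BilinMap.toQuadraticMap ((2 : F)⁻¹ • B)
  have hQ₁p : ∀ a b, QuadraticMap.polar Q₁ a b = B a b := fun a b => by
    rw [LinearMap.BilinMap.polar_toQuadraticMap, LinearMap.smul_apply, LinearMap.smul_apply, LinearMap.smul_apply,
      LinearMap.smul_apply, show B b a = B a b from form_symm hπ hlen hc b a, smul_eq_mul, ← mul_add, ← two_mul,
      ← mul_assoc, inv_mul_cancel₀ h2, one_mul]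
  have hQ₁ : (QuadraticMap.polarBilin Q₁).Nondegenerate :=
    Forms.nondegenerate_iff.2 fun a ha => (hnd c hc0 hc).1 a fun b => by rw [← hQ₁p]; exact ha b
  have hgram : (Forms.gram Q₁ bI).det = s ^ len i₀ * d₁ := by
    rw [hd₁, ← det_scale hlen]
    congr 1
    ext a b
    rw [LinearMap.BilinForm.toMatrix_apply]
    exact hQ₁p _ _
  obtain ⟨g, hg⟩ := Forms.exists_isometry_of_isSquare h2 hQ₁ hQ₂ bI (by
    rw [hgram, ← hd₂]
    obtain ⟨t, ht⟩ := hi₀.1
    refine ⟨s ^ (t + 1), ?_⟩
    rw [ht, hs]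
    ring)
  -- the isometry
  let y : Module.End F (Idx len → F) := shift len
  have hlp : ∀ i, len i ≤ p := by
    intro i
    have h1 : ∀ a ∈ μ, a ≤ p := fun a ha => (hμ a ha).2
    rcases i with i | ⟨i, b⟩
    · exact h1 _ (Multiset.mem_filter.1 (Multiset.mem_toList.1 (List.get_mem Lo i))).1
    · refine h1 _ (Multiset.mem_of_mem_filter (p := Even) ?_)
      rw [hH2]
      exact Multiset.mem_add.2 (Or.inl (Multiset.mem_toList.1 (List.get_mem Le i)))
  have hyp : y ^ p = 0 := LinearMap.ext fun u => funext fun q => by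
    rw [shift_pow, if_pos (lt_of_lt_of_le q.2.isLt (hlp q.1))]
    rfl
  obtain ⟨w, hw⟩ : IsUnit (1 - y) := IsNilpotent.isUnit_one_sub ⟨p, hyp⟩
  let winv : Module.End F (Idx len → F) := ((w⁻¹ : (Module.End F (Idx len → F))ˣ) : Module.End F (Idx len → F))
  have hw1 : (1 - y) * winv = 1 := by rw [← hw]; exact w.mul_inv
  have hw2 : winv * (1 - y) = 1 := by rw [← hw]; exact w.inv_mul
  let x₀ : Module.End F (Idx len → F) := (1 + y) * winv
  have hx₀B : ∀ a b, B (x₀ a) (x₀ b) = B a b := by
    intro a b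
    have key : ∀ a b, B ((1 + y) a) ((1 + y) b) = B ((1 - y) a) ((1 - y) b) := fun a b => by
      simp only [LinearMap.add_apply, LinearMap.sub_apply, Module.End.one_apply, map_add, map_sub]
      rw [show B (y a) b = - B a (y b) from form_skew hlen a b]
      ring
    have ha : ∀ v, (1 - y) (winv v) = v := fun v => by rw [← Module.End.mul_apply, hw1, Module.End.one_apply]
    show B ((1 + y) (winv a)) ((1 + y) (winv b)) = _
    rw [key, ha, ha]
  have hcomm : Commute y winv :=
    (Commute.units_inv_right (a := y) (u := w) (by rw [hw]; exact (Commute.one_right y).sub_right (Commute.refl y)))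
  have hN : x₀ - 1 = ((2 : F) • y) * winv := by
    have : x₀ - 1 = (1 + y) * winv - (1 - y) * winv := by rw [hw1]
    rw [this, ← sub_mul, two_smul]
    congr 1
    abel
  have hNk : ∀ k, LinearMap.range ((x₀ - 1) ^ k) = LinearMap.range (y ^ k) := by
    intro k
    rw [hN, (hcomm.smul_left (2 : F)).mul_pow, smul_pow, smul_mul_assoc, LinearMap.range_smul _ _ (pow_ne_zero _ h2)]
    show LinearMap.range ((y ^ k).comp (winv ^ k)) = _
    refine LinearMap.range_comp_of_range_eq_top _ (LinearMap.range_eq_top.2 fun v => ?_)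
    refine ⟨((1 - y) ^ k) v, ?_⟩
    rw [← Module.End.mul_apply, ← (Commute.mul_pow (show Commute winv (1 - y) by rw [Commute, SemiconjBy, hw1, hw2]) k),
      hw2, one_pow, Module.End.one_apply]
  -- transport
  let Φ : (Idx len → F) ≃ₗ[F] (ι → F) := g.trans E
  have hΦ : ∀ v, Q (Φ v) = Q₁ v := fun v => hg v
  let X : Module.End F (ι → F) := Φ.conjAlgEquiv F x₀
  have hXa : ∀ v, X v = Φ (x₀ (Φ.symm v)) := fun v => rfl
  have hXQ : ∀ v, Q (X v) = Q v := fun v => by
    rw [hXa, hΦ]
    conv_rhs => rw [← Φ.apply_symm_apply v, hΦ]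
    show (2 : F)⁻¹ • B (x₀ (Φ.symm v)) (x₀ (Φ.symm v)) = (2 : F)⁻¹ • B (Φ.symm v) (Φ.symm v)
    rw [hx₀B]
  haveI : Nonempty ι := Fintype.card_pos_iff.1 (by omega)
  haveI : CharP (Module.End F (ι → F)) p :=
    charP_of_injective_algebraMap (algebraMap F (Module.End F (ι → F))).injective p
  have hXN : X - 1 = Φ.conjAlgEquiv F (x₀ - 1) := by rw [map_sub, map_one]
  have hx₀p : (x₀ - 1) ^ p = 0 := by
    rw [← LinearMap.range_eq_bot, hNk, hyp, LinearMap.range_zero]
  have hXp : X ^ p = 1 := by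
    have h1 : (X - 1) ^ p = 0 := by rw [hXN, ← map_pow, hx₀p, map_zero]
    rw [sub_pow_char_of_commute p (Commute.one_right X), one_pow, sub_eq_zero] at h1
    exact h1
  have hmat : LinearMap.toMatrix' X * (LinearMap.toMatrix' X) ^ (p - 1) = 1 := by
    rw [← pow_succ', Nat.sub_add_cancel hp.out.one_le]
    have h1 := map_pow (LinearMap.toMatrixAlgEquiv' (R := F) (n := ι)) X p
    rw [hXp, map_one] at h1
    exact h1.symm
  let xg : GL ι F := ⟨LinearMap.toMatrix' X, (LinearMap.toMatrix' X) ^ (p - 1), hmat, mul_eq_one_comm.1 hmat⟩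
  have hxg : Matrix.toLin' (xg : Matrix ι ι F) = X := Matrix.toLin'_toMatrix' X
  have hxgp : xg ^ p = 1 := Units.ext (by
    rw [Units.val_pow_eq_pow_val, Units.val_one]
    have h1 := map_pow (LinearMap.toMatrixAlgEquiv' (R := F) (n := ι)) X p
    rw [hXp, map_one] at h1
    exact h1.symm)
  refine ⟨xg, ?_, hxgp, fun k => ?_⟩
  · have hmem : xg ∈ Cfsg.isometryGroup F ⇑Q := Forms.mem_isometryGroup.2 fun v => by
      show Q (LinearMap.toMatrix' X *ᵥ v) = Q v
      rw [LinearMap.toMatrix'_mulVec, hXQ]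
    refine Forms.mem_omegaGL.2 ⟨⟨xg, hmem⟩, ?_, rfl⟩
    exact mem_omega_of_odd_pow h2 Q hQ hdim _ (hp.out.odd_of_ne_two hp2) (Subtype.ext hxgp)
  · rw [hxg, rkOn, Submodule.map_top, hXN, ← map_pow]
    rw [show LinearMap.range (Φ.conjAlgEquiv F ((x₀ - 1) ^ k)) =
      (LinearMap.range ((x₀ - 1) ^ k)).map (Φ : (Idx len → F) →ₗ[F] (ι → F)) by
        rw [LinearEquiv.conjAlgEquiv_apply, LinearMap.range_comp, LinearMap.range_comp, LinearEquiv.range,
          Submodule.map_top], LinearEquiv.finrank_map_eq, hNk, shift_rank, rankSum, ← hblocks]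

end CfsgLib.OrthUnip
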